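import Cfsg.Agent.H893.SR.TriD4U
import Cfsg.Agent.S1067

/-!
# `³D₄(q)`, `q` even: all 2-elements are strongly real (helper893, TEAM SR, task 3862 part 1)
-/

set_option autoImplicit false

namespace Cfsg.Agent.H893.SR.Tri

open Cfsg.Lie Cfsg.Agent.H721.SR
open Cfsg.Agent.ChevalleyStructure.D4Fixed (sig coe_sig fix mem_fix twisted_le_fix twisted_induction exists_frob)
open Cfsg.Agent.ChevalleyStructure.D4U

variable {K : Type*} [Field K] [Fintype K] {q : ℕ}

theorem two_of_even (hq : IsPrimePow q) (h : Even q) : ∃ k : ℕ, 0 < k ∧ q = 2 ^ k := by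
  obtain ⟨p, k, hp, hk, rfl⟩ := hq
  have hp' := hp.nat_prime
  have : p = 2 := by
    have h1 : 2 ∣ p ^ k := even_iff_two_dvd.1 h
    exact ((Nat.prime_dvd_prime_iff_eq Nat.prime_two hp').1 (Nat.prime_two.dvd_of_dvd_pow h1)).symm
  subst this
  exact ⟨k, hk, rfl⟩

theorem char_two (hq : IsPrimePow q) (h : Even q) (hK : Fintype.card K = q ^ 3) (x : K) : x + x = 0 := by
  obtain ⟨k, hk, rfl⟩ := two_of_even hq h
  have h1 : ((2 ^ k : ℕ) : K) ^ 3 = 0 := by
    have := FiniteField.cast_card_eq_zero K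
    rw [hK] at this
    exact_mod_cast this
  have h2 : (2 : K) = 0 := by
    have h3 : ((2 ^ k : ℕ) : K) = 0 := by
      rcases pow_eq_zero_iff (n := 3) (by norm_num) |>.1 h1 with h
      exact h
    rw [Nat.cast_pow] at h3
    exact_mod_cast (pow_eq_zero_iff hk.ne').1 h3
  linear_combination x * h2

/-- **All elements of `2`-power order of `³D₄(q)`, `q` even, are strongly real.** -/
theorem sr_two (hq : IsPrimePow q) (h : Even q) (hK : Fintype.card K = q ^ 3) (g : twistedD4 K q)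
    (hg : ∃ n : ℕ, g ^ 2 ^ n = 1) : SR g := by
  obtain ⟨φ, hφ⟩ := exists_frob hq hK
  have h2 := char_two hq h hK
  have hle := twisted_le_fix hK hφ
  have hK3 := phi3 hK hφ
  obtain ⟨k, hk, hqk⟩ := two_of_even hq h
  haveI : Fact (Nat.Prime 2) := ⟨Nat.prime_two⟩
  set P : Subgroup (twistedD4 K q) := (chevD4.posUnipotent K).subgroupOf (twistedD4 K q) with hP
  have hcard : Nat.card P = q ^ 12 := by
    rw [← card_U1 hq hK, hP]
    have e : (chevD4.posUnipotent K).subgroupOf (twistedD4 K q) =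
        (chevD4.posUnipotent K ⊓ twistedD4 K q).subgroupOf (twistedD4 K q) := (Subgroup.inf_subgroupOf_right _ _).symm
    rw [e]
    exact Nat.card_congr (Subgroup.subgroupOfEquivOfLe inf_le_right).toEquiv
  have hindex : ¬ 2 ∣ P.index := by
    have h3 := P.card_mul_index
    rw [hcard, S1067.result hq hK, mul_assoc, mul_assoc] at h3
    have hq0 : 0 < q ^ 12 := pow_pos hq.pos 12
    have h4 := Nat.eq_of_mul_eq_mul_left hq0 h3
    rw [h4]
    have hq1 : 1 < q := hq.one_lt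
    have e1 : Even (q ^ 2) := h.pow_of_ne_zero (by norm_num)
    have e2 : Even (q ^ 6) := h.pow_of_ne_zero (by norm_num)
    have e3 : Even (q ^ 8) := h.pow_of_ne_zero (by norm_num)
    have e4 : Even (q ^ 4) := h.pow_of_ne_zero (by norm_num)
    have g1 : 0 < q ^ 2 := pow_pos hq.pos 2
    have g2 : 0 < q ^ 6 := pow_pos hq.pos 6
    intro hd
    rcases (Nat.prime_two.dvd_mul).1 hd with hd | hd
    · obtain ⟨a, ha⟩ := e1
      omega
    · rcases (Nat.prime_two.dvd_mul).1 hd with hd | hd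
      · obtain ⟨a, ha⟩ := e2
        omega
      · obtain ⟨a, ha⟩ := e3
        obtain ⟨b, hb⟩ := e4
        omega
  have hpg : IsPGroup 2 P := IsPGroup.of_card (n := k * 12) (by rw [hcard, hqk, ← pow_mul])
  let S : Sylow 2 (twistedD4 K q) := hpg.toSylow hindex
  have hz : IsPGroup 2 (Subgroup.zpowers g) := by
    obtain ⟨n, hn⟩ := hg
    rintro ⟨x, hx⟩
    obtain ⟨m, rfl⟩ := Subgroup.mem_zpowers_iff.1 hx
    refine ⟨n, Subtype.ext ?_⟩
    show (g ^ m) ^ 2 ^ n = 1
    rw [← zpow_natCast, ← zpow_mul, mul_comm, zpow_mul, zpow_natCast, hn, one_zpow]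
  obtain ⟨Q, hQ⟩ := hz.exists_le_sylow
  obtain ⟨x, hx⟩ := MulAction.exists_smul_eq (twistedD4 K q) Q S
  have hgQ : g ∈ (Q : Subgroup (twistedD4 K q)) := hQ (Subgroup.mem_zpowers g)
  have h5 : x * g * x⁻¹ ∈ (S : Subgroup (twistedD4 K q)) := by
    rw [← hx, Sylow.coe_subgroup_smul, Subgroup.mem_smul_pointwise_iff_exists]
    exact ⟨g, hgQ, rfl⟩
  have h6 : x * g * x⁻¹ ∈ P := h5
  have h7 := (sr_mem_U h2 hK3 hφ hle (x * g * x⁻¹) h6).conj x⁻¹
  have e : x⁻¹ * (x * g * x⁻¹) * x⁻¹⁻¹ = g := by group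
  rwa [e] at h7

end Cfsg.Agent.H893.SR.Tri
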